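-- Team project OELM (S5990): minus-type orthogonal groups and elliptic m-spaces, ALL q
-- (characteristic two included).  Interface file (helper58): definitions and package statements.
-- Built on helper23's OHYP interface (Inv, Nd, Plus, Perp, fixSp, movSp, ordI, cc), helper44's
-- OELP interface (EllSp, AllFix, AllFixIso, StdE and the generic E-packages) and helper64's
-- OPARM interface (MI, Aniso).  Everything is stated for `Cfsg.quadFormMinus k F a b` on
-- `MI k = (Fin k ⊕ Fin k) ⊕ Fin 2` (dimension `2 k + 2`; in S5990 `k = d - 1`).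
import Mathlib
import Cfsg.Prelude.Def_GeometricClasses
import Cfsg.Prelude.Def_Classical
import Cfsg.Agent.Lib.Helper23.OHyp.Defs
import Cfsg.Agent.Lib.Helper44.OElp.Defs
import Cfsg.Agent.Lib.Helper64.OParM.Defs

set_option autoImplicit false
open scoped MatrixGroups
open Matrix

namespace Cfsg.Agent.Lib.Helper58.OElm

open Cfsg.Agent.Lib.Helper23.OHyp Cfsg.Agent.Lib.Helper44.OElp Cfsg.Agent.Lib.Helper64.OParM

universe u

/-- Numerical condition on a MINUS space: an invariant elliptic space `W = W_C ⊥ W_N` with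
`dim W_C = e`, `dim W_N = c j`, where `D = dim fixSp x`, `c J = dim movSp x`. -/
def GoodM (i e D J j : ℕ) : Prop :=
  (0 < e ∧ e < D) ∨ (e = 0 ∧ Even i ∧ Odd j) ∨ (0 < e ∧ e = D ∧ (Odd i ∨ Even (J + j)))

/-- The right-hand side of S5990 for `r` odd, `r ≠ p`. -/
def RhsOddM (d m i c : ℕ) : Prop :=
  (Odd i ∧ ((2 * d) % c = 0 ∨ (c ≤ m ∧ 0 < m % c ∧ m % c ≤ (2 * d) % c))) ∨
  (Even i ∧
    (((2 * d) % c = 0 ∧ (Even ((2 * d) / i) ∨ (m % c = 0 ∧ Odd (m / i)))) ∨
     (0 < (2 * d) % c ∧ i ≤ m ∧ ((0 < m % c ∧ m % c < (2 * d) % c) ∨ (m % c = 0 ∧ Odd (m / i)) ∨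
       (m % c = (2 * d) % c ∧ Even ((2 * d + m - 2 * ((2 * d) % c)) / i))))))

/-! ### Level 0: the three cases of the theorem -/

/-- [R2E] `r = 2 = p` (`q` even). -/
def PkgR2E : Prop :=
  ∀ (F : Type u) [Field F] [Fintype F], (2 : F) = 0 →
    ∀ (k m : ℕ) (a b : F), Aniso a b → 3 ≤ k → 2 ≤ m → Even m → m ≤ 2 * k →
      (AllFix (Cfsg.quadFormMinus k F a b) m 2 ↔ (Odd k ∨ m % 4 = 2))

/-- [R2O] `r = 2`, `q` odd. -/
def PkgR2O : Prop :=
  ∀ (F : Type u) [Field F] [Fintype F], (2 : F) ≠ 0 →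
    ∀ (k m : ℕ) (a b : F), Aniso a b → 3 ≤ k → 2 ≤ m → Even m → m ≤ 2 * k →
      (AllFix (Cfsg.quadFormMinus k F a b) m 2 ↔
        (Odd k ∨ Fintype.card F % 8 ≠ 7 ∨ m % 4 = 2))

/-- [RODDM] `r` odd, `r ≠ p` (any `q`). -/
def PkgROddM : Prop :=
  ∀ (F : Type u) [Field F] [Fintype F] (k m : ℕ) (a b : F), Aniso a b →
    3 ≤ k → 2 ≤ m → Even m → m ≤ 2 * k →
    ∀ (r : ℕ), r.Prime → r ≠ 2 → ¬ r ∣ Fintype.card F →
      r ∣ Nat.card (EllSp (Cfsg.quadFormMinus k F a b) m) →
      (AllFix (Cfsg.quadFormMinus k F a b) m r ↔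
        RhsOddM (k + 1) m (ordI (Fintype.card F) r) (cc (Fintype.card F) r))

/-! ### The minus form -/

/-- [MINUSQE] the minus form is nondegenerate and not of plus type, any characteristic
(for `2 ≠ 0` this is helper64's landed [MINUSQ]). -/
def PkgMinusQE : Prop :=
  ∀ (F : Type u) [Field F] [Fintype F] (k : ℕ) (a b : F), Aniso a b →
    Cfsg.Geo.IsNondegenerateQuadraticForm (Cfsg.quadFormMinus k F a b) ∧
    ¬ Plus (Cfsg.quadFormMinus k F a b) ⊤

/-! ### `r` odd: the per-element criterion -/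

/-- [JBM] the block count of a nontrivial element on a space which is NOT of plus type. -/
def PkgJBM : Prop :=
  ∀ (F : Type u) [Field F] [Fintype F] (ι : Type) [Fintype ι] [DecidableEq ι]
    (Q : (ι → F) → F) (r : ℕ) (x : Matrix ι ι F), StdE Q r x → x ≠ 1 → ¬ Plus Q ⊤ →
      cc (Fintype.card F) r ∣ Module.finrank F (movSp x) ∧
      0 < Module.finrank F (movSp x) ∧
      Module.finrank F (fixSp x) + Module.finrank F (movSp x) = Fintype.card ι ∧
      (Module.finrank F (fixSp x) = 0 →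
        (Even (ordI (Fintype.card F) r) ∧
          Odd (Module.finrank F (movSp x) / ordI (Fintype.card F) r)))

/-- [FIXM] a good `j` gives an invariant elliptic `m`-space (ambient space not of plus type,
of even dimension). -/
def PkgFixM : Prop :=
  ∀ (F : Type u) [Field F] [Fintype F] (ι : Type) [Fintype ι] [DecidableEq ι]
    (Q : (ι → F) → F) (r : ℕ) (x : Matrix ι ι F), StdE Q r x → ¬ Plus Q ⊤ →
    Even (Fintype.card ι) →
    ∀ m j : ℕ, Even m → cc (Fintype.card F) r * j ≤ m →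
      cc (Fintype.card F) r * j ≤ Module.finrank F (movSp x) →
      GoodM (ordI (Fintype.card F) r) (m - cc (Fintype.card F) r * j)
        (Module.finrank F (fixSp x)) (Module.finrank F (movSp x) / cc (Fintype.card F) r) j →
      ∃ W : Submodule F (ι → F), (Module.finrank F ↥W = m ∧
        Cfsg.Geo.IsNondegenerateOn (QuadraticMap.polar Q) W ∧ ¬ Cfsg.Geo.IsPlusTypeOn Q W) ∧
        W.map (Matrix.toLin' x) ≤ W

/-- [DERM] an invariant elliptic `m`-space gives a good `j`. -/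
def PkgDerM : Prop :=
  ∀ (F : Type u) [Field F] [Fintype F] (ι : Type) [Fintype ι] [DecidableEq ι]
    (Q : (ι → F) → F) (r : ℕ) (x : Matrix ι ι F), StdE Q r x → ¬ Plus Q ⊤ →
    Even (Fintype.card ι) →
    ∀ (m : ℕ) (W : Submodule F (ι → F)), Even m → Module.finrank F ↥W = m → Nd Q W →
      ¬ Plus Q W → Inv x W →
      ∃ j : ℕ, cc (Fintype.card F) r * j ≤ m ∧
        cc (Fintype.card F) r * j ≤ Module.finrank F (movSp x) ∧
        GoodM (ordI (Fintype.card F) r) (m - cc (Fintype.card F) r * j)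
          (Module.finrank F (fixSp x)) (Module.finrank F (movSp x) / cc (Fintype.card F) r) j

/-- [EXISTM] elements of order `r` of `O⁻_{2k+2}(q)` with `J` blocks, any characteristic. -/
def PkgExistM : Prop :=
  ∀ (F : Type u) [Field F] [Fintype F] (k r : ℕ) (a b : F), Aniso a b →
    r.Prime → r ≠ 2 → ¬ r ∣ Fintype.card F →
    ∀ J : ℕ, 1 ≤ J → cc (Fintype.card F) r * J ≤ 2 * k + 2 →
      (cc (Fintype.card F) r * J = 2 * k + 2 → (Even (ordI (Fintype.card F) r) ∧ Odd J)) →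
      ∃ x : GL (MI k) F, x ∈ Cfsg.isometryGroup F (Cfsg.quadFormMinus k F a b) ∧
        orderOf x = r ∧
        Module.finrank F (fixSp (x : Matrix (MI k) (MI k) F)) +
          cc (Fintype.card F) r * J = 2 * k + 2

/-- [EXISTME] = [EXISTM] for `i` even. -/
def PkgExistME : Prop :=
  ∀ (F : Type u) [Field F] [Fintype F] (k r : ℕ) (a b : F), Aniso a b →
    r.Prime → r ≠ 2 → ¬ r ∣ Fintype.card F → Even (ordI (Fintype.card F) r) →
    ∀ J : ℕ, 1 ≤ J → ordI (Fintype.card F) r * J ≤ 2 * k + 2 →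
      (ordI (Fintype.card F) r * J = 2 * k + 2 → Odd J) →
      ∃ x : GL (MI k) F, x ∈ Cfsg.isometryGroup F (Cfsg.quadFormMinus k F a b) ∧
        orderOf x = r ∧
        Module.finrank F (fixSp (x : Matrix (MI k) (MI k) F)) +
          ordI (Fintype.card F) r * J = 2 * k + 2

/-- [EMBM] an isometry of the hyperbolic part `Σ xᵢ yᵢ` extended by the identity on the
anisotropic plane. -/
def PkgEmbM : Prop :=
  ∀ (F : Type u) [Field F] [Fintype F] (k : ℕ) (a b : F) (y : GL (Fin k ⊕ Fin k) F),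
    y ∈ Cfsg.isometryGroup F (Cfsg.quadFormPlus k F) →
    ∃ x : GL (MI k) F, x ∈ Cfsg.isometryGroup F (Cfsg.quadFormMinus k F a b) ∧
      orderOf x = orderOf y ∧
      Module.finrank F (fixSp (x : Matrix (MI k) (MI k) F)) =
        Module.finrank F (fixSp (y : Matrix (Fin k ⊕ Fin k) (Fin k ⊕ Fin k) F)) + 2

/-- [REDM] reduction from `Ω` / scalar `r`-th power to isometries of order `r`. -/
def PkgRedM : Prop :=
  ∀ (F : Type u) [Field F] [Fintype F] (k m r : ℕ) (a b : F), Aniso a b → 3 ≤ k →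
    r.Prime → r ≠ 2 →
    (AllFix (Cfsg.quadFormMinus k F a b) m r ↔ AllFixIso (Cfsg.quadFormMinus k F a b) m r)

/-! ### `r` odd: numerics (pure arithmetic) -/

/-- [NUMFIXM] the right-hand side gives a good `j` for every admissible `(J, D)`. -/
def PkgNumFixM : Prop :=
  ∀ d m i c : ℕ, 4 ≤ d → 2 ≤ m → Even m → m + 2 ≤ 2 * d → 0 < i →
    c = (if Even i then i else 2 * i) → RhsOddM d m i c →
    ∀ J D : ℕ, 1 ≤ J → D + c * J = 2 * d → (D = 0 → (Even i ∧ Odd J)) →
      ∃ j : ℕ, c * j ≤ m ∧ j ≤ J ∧ GoodM i (m - c * j) D J j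

/-- [NUMDERM] if the right-hand side fails then some admissible `(J, D)` has no good `j`, or we
are in one of the two cases excluded by the index hypothesis. -/
def PkgNumDerM : Prop :=
  ∀ d m i c : ℕ, 4 ≤ d → 2 ≤ m → Even m → m + 2 ≤ 2 * d → 0 < i →
    c = (if Even i then i else 2 * i) → ¬ RhsOddM d m i c →
    (∃ J D : ℕ, 1 ≤ J ∧ D + c * J = 2 * d ∧ (D = 0 → (Even i ∧ Odd J)) ∧
      ∀ j : ℕ, c * j ≤ m → j ≤ J → ¬ GoodM i (m - c * j) D J j) ∨
    (m < c ∧ m < (2 * d) % c) ∨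
    (m < c ∧ m = (2 * d) % c ∧ (Odd i ∨ Even ((2 * d) / i)))

/-! ### `r` odd: the index hypothesis -/

/-- [CNT1M] `m < c`, `m < (2k+2) mod c`: the number of elliptic `m`-spaces is prime to `r`. -/
def PkgCnt1M : Prop :=
  ∀ (F : Type u) [Field F] [Fintype F] (k r : ℕ) (a b : F), Aniso a b →
    r.Prime → r ≠ 2 → ¬ r ∣ Fintype.card F →
    ∀ m : ℕ, Even m → 2 ≤ m → m < cc (Fintype.card F) r →
      m < (2 * k + 2) % cc (Fintype.card F) r →
      ¬ r ∣ Nat.card (EllSp (Cfsg.quadFormMinus k F a b) m)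

/-- [CNT2M] `m = (2k+2) mod c < c` and (`i` odd or `(2k+2) / i` even): the number of elliptic
`m`-spaces is `≡ 1 (mod r)`. -/
def PkgCnt2M : Prop :=
  ∀ (F : Type u) [Field F] [Fintype F] (k r : ℕ) (a b : F), Aniso a b →
    r.Prime → r ≠ 2 → ¬ r ∣ Fintype.card F →
    ∀ m : ℕ, Even m → 2 ≤ m → m < cc (Fintype.card F) r →
      m = (2 * k + 2) % cc (Fintype.card F) r →
      (Odd (ordI (Fintype.card F) r) ∨ Even ((2 * k + 2) / ordI (Fintype.card F) r)) →
      ¬ r ∣ Nat.card (EllSp (Cfsg.quadFormMinus k F a b) m)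

end Cfsg.Agent.Lib.Helper58.OElm
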