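-- Team project OELM (S5990): assembly from the packages (helper58).
import Mathlib
import Cfsg.Agent.Lib.Helper58.OElm.Defs
import Cfsg.Agent.Lib.Helper44.OElp.Asm

set_option autoImplicit false
open scoped MatrixGroups
open Matrix

namespace Cfsg.Agent.Lib.Helper58.OElm

open Cfsg.Agent.Lib.Helper23.OHyp Cfsg.Agent.Lib.Helper44.OElp Cfsg.Agent.Lib.Helper64.OParM

universe u

theorem card_MI (k : ℕ) : Fintype.card (MI k) = 2 * k + 2 := by
  simp only [MI, Fintype.card_sum, Fintype.card_fin]; ring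

/-- [EXISTM] from [EXISTME] (`i` even), and helper44's [EXISTP] + [EMBM] (`i` odd). -/
theorem pkgExistM_of (hE : PkgExistME.{u}) (hEP : PkgExistP.{u}) (hEmb : PkgEmbM.{u}) :
    PkgExistM.{u} := by
  intro F _ _ k r a b hab hr hr2 hrq J hJ1 hle hadm
  have hcdef := cc_def (Fintype.card F) r
  by_cases hie : Even (ordI (Fintype.card F) r)
  · have hci : cc (Fintype.card F) r = ordI (Fintype.card F) r := by rw [hcdef, if_pos hie]
    rw [hci] at hle hadm ⊢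
    exact hE F k r a b hab hr hr2 hrq hie J hJ1 hle (fun h => (hadm h).2)
  · have hio : Odd (ordI (Fintype.card F) r) := Nat.not_even_iff_odd.mp hie
    have hci : cc (Fintype.card F) r = 2 * ordI (Fintype.card F) r := by rw [hcdef, if_neg hie]
    have hne : cc (Fintype.card F) r * J ≠ 2 * k + 2 := fun h => hie (hadm h).1
    have hle' : cc (Fintype.card F) r * J ≤ 2 * k := by
      have h2 : cc (Fintype.card F) r * J = 2 * (ordI (Fintype.card F) r * J) := by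
        rw [hci]; ring
      omega
    obtain ⟨y, hyO, hyord, hyfix⟩ := hEP F k r hr hr2 hrq J hJ1 hle' (fun _ => Or.inl hio)
    obtain ⟨x, hxO, hxord, hxfix⟩ := hEmb F k a b y hyO
    refine ⟨x, hxO, hxord.trans hyord, ?_⟩
    rw [hxfix]; omega

/-- [RODDM] from the packages. -/
theorem pkgROddM_of (hRed : PkgRedM.{u}) (hMQ : PkgMinusQE.{u}) (hJB : PkgJBM.{u})
    (hNF : PkgNumFixM) (hND : PkgNumDerM) (hFix : PkgFixM.{u}) (hDer : PkgDerM.{u})
    (hEx : PkgExistM.{u}) (hC1 : PkgCnt1M.{u}) (hC2 : PkgCnt2M.{u}) : PkgROddM.{u} := by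
  intro F _ _ k m a b hab hk hm hme hmk r hr hr2 hrq hdiv
  have hi0 : 0 < ordI (Fintype.card F) r := ordI_pos' hr hrq
  have hc0 : 0 < cc (Fintype.card F) r := cc_pos' hi0
  have hcdef := cc_def (Fintype.card F) r
  obtain ⟨hQnd, hNPlus⟩ := hMQ F k a b hab
  have hcard : Fintype.card (MI k) = 2 * k + 2 := card_MI k
  have hcev : Even (Fintype.card (MI k)) := by rw [hcard]; exact ⟨k + 1, by ring⟩
  have h2d : 2 * (k + 1) = 2 * k + 2 := by ring
  rw [hRed F k m r a b hab hk hr hr2]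
  constructor
  · intro hAll
    by_contra hR
    rcases hND (k + 1) m _ _ (by omega) hm hme (by omega) hi0 hcdef hR with
      ⟨J, D, hJ1, hsumJ, hadm, hno⟩ | ⟨h1, h2⟩ | ⟨h1, h2, h3⟩
    · rw [h2d] at hsumJ
      obtain ⟨x, hxO, hxord, hxfix⟩ := hEx F k r a b hab hr hr2 hrq J hJ1 (by omega)
        (fun h => hadm (by omega))
      have hS := stdE_of_order hQnd hr hr2 hrq hxO hxord
      obtain ⟨W, ⟨hWm, hWnd, hWnp⟩, hWinv⟩ := hAll x hxO hxord
      obtain ⟨j, hj1, hj2, hgood⟩ := hDer F _ _ r _ hS hNPlus hcev m W hme hWm hWnd hWnp hWinv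
      obtain ⟨-, -, hsum, -⟩ := hJB F _ _ r _ hS (val_ne_one_of_order hr hxord) hNPlus
      rw [hcard] at hsum
      have hsum' : Module.finrank F (fixSp (x : Matrix (MI k) (MI k) F)) +
          Module.finrank F (movSp (x : Matrix (MI k) (MI k) F)) = 2 * k + 2 := hsum
      have hD : Module.finrank F (fixSp (x : Matrix (MI k) (MI k) F)) = D := by omega
      have hN : Module.finrank F (movSp (x : Matrix (MI k) (MI k) F)) =
          cc (Fintype.card F) r * J := by omega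
      rw [hD, hN, Nat.mul_div_cancel_left _ hc0] at hgood
      rw [hN] at hj2
      exact hno j hj1 (Nat.le_of_mul_le_mul_left hj2 hc0) hgood
    · rw [h2d] at h2
      exact hC1 F k r a b hab hr hr2 hrq m hme hm h1 h2 hdiv
    · rw [h2d] at h2 h3
      exact hC2 F k r a b hab hr hr2 hrq m hme hm h1 h2 h3 hdiv
  · intro hR x hxO hxord
    have hS := stdE_of_order hQnd hr hr2 hrq hxO hxord
    obtain ⟨⟨J, hJ⟩, hNpos, hsum, hD0⟩ := hJB F _ _ r _ hS (val_ne_one_of_order hr hxord) hNPlus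
    rw [hcard] at hsum
    have hJ1 : 1 ≤ J := by
      rcases Nat.eq_zero_or_pos J with h | h
      · rw [h, mul_zero] at hJ; omega
      · exact h
    have hadm : Module.finrank F (fixSp (x : Matrix (MI k) (MI k) F)) = 0 →
        (Even (ordI (Fintype.card F) r) ∧ Odd J) := by
      intro h0
      obtain ⟨hie, hodd⟩ := hD0 h0
      refine ⟨hie, ?_⟩
      have hci : cc (Fintype.card F) r = ordI (Fintype.card F) r := by
        rw [hcdef, if_pos hie]
      rw [hJ, hci, Nat.mul_div_cancel_left _ hi0] at hodd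
      exact hodd
    obtain ⟨j, hj1, hj2, hgood⟩ := hNF (k + 1) m _ _ (by omega) hm hme (by omega) hi0 hcdef hR J _
      hJ1 (by rw [← hJ, h2d]; exact hsum) hadm
    refine hFix F _ _ r _ hS hNPlus hcev m j hme hj1
      (by rw [hJ]; exact Nat.mul_le_mul_left _ hj2) ?_
    rw [hJ, Nat.mul_div_cancel_left _ hc0]
    exact hgood

/-- The frozen statement of S5990 from the three cases. -/
theorem result_of (hR2E : PkgR2E.{u}) (hR2O : PkgR2O.{u}) (hRO : PkgROddM.{u})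
    {F : Type u} [Field F] [Fintype F] {p : ℕ} [Fact p.Prime] [CharP F p] {q : ℕ} (hq : Fintype.card F = q)
    (d m : ℕ) (hd : 4 ≤ d) (hm : 2 ≤ m) (hme : Even m) (hmn : m + 2 ≤ 2 * d) (a b : F) (hab : ∀ x y : F, x ^ 2 + a * x * y + b * y ^ 2 = 0 → x = 0 ∧ y = 0)
    (r : ℕ) [Fact r.Prime] (hr : r = 2 ∨ r ≠ p)
    (hrΩ : r ∣ Nat.card {W : Submodule F ((Fin (d - 1) ⊕ Fin (d - 1)) ⊕ Fin 2 → F) // Module.finrank F ↥W = m ∧ Cfsg.Geo.IsNondegenerateOn (QuadraticMap.polar (Cfsg.quadFormMinus (d - 1) F a b)) W ∧ ¬ Cfsg.Geo.IsPlusTypeOn (Cfsg.quadFormMinus (d - 1) F a b) W})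
    (i c : ℕ) (hi : i = orderOf (q : ZMod r)) (hc : c = if Even i then i else 2 * i) :
    (∀ x : GL ((Fin (d - 1) ⊕ Fin (d - 1)) ⊕ Fin 2) F, x ∈ Cfsg.Geo.omegaGL (Cfsg.quadFormMinus (d - 1) F a b) →
      (∃ z : F, ((x ^ r : GL ((Fin (d - 1) ⊕ Fin (d - 1)) ⊕ Fin 2) F) : Matrix ((Fin (d - 1) ⊕ Fin (d - 1)) ⊕ Fin 2) ((Fin (d - 1) ⊕ Fin (d - 1)) ⊕ Fin 2) F) = z • (1 : Matrix ((Fin (d - 1) ⊕ Fin (d - 1)) ⊕ Fin 2) ((Fin (d - 1) ⊕ Fin (d - 1)) ⊕ Fin 2) F)) →
      (∀ z : F, (x : Matrix ((Fin (d - 1) ⊕ Fin (d - 1)) ⊕ Fin 2) ((Fin (d - 1) ⊕ Fin (d - 1)) ⊕ Fin 2) F) ≠ z • (1 : Matrix ((Fin (d - 1) ⊕ Fin (d - 1)) ⊕ Fin 2) ((Fin (d - 1) ⊕ Fin (d - 1)) ⊕ Fin 2) F)) →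
      ∃ W : Submodule F ((Fin (d - 1) ⊕ Fin (d - 1)) ⊕ Fin 2 → F), (Module.finrank F ↥W = m ∧ Cfsg.Geo.IsNondegenerateOn (QuadraticMap.polar (Cfsg.quadFormMinus (d - 1) F a b)) W ∧ ¬ Cfsg.Geo.IsPlusTypeOn (Cfsg.quadFormMinus (d - 1) F a b) W) ∧ W.map (Matrix.toLin' (x : Matrix ((Fin (d - 1) ⊕ Fin (d - 1)) ⊕ Fin 2) ((Fin (d - 1) ⊕ Fin (d - 1)) ⊕ Fin 2) F)) ≤ W) ↔
    ((r = 2 ∧ p = 2 ∧ (Even d ∨ m % 4 = 2)) ∨
     (r = 2 ∧ p ≠ 2 ∧ (Even d ∨ q % 8 ≠ 7 ∨ m % 4 = 2)) ∨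
     (r ≠ p ∧ 2 < r ∧ Odd i ∧ ((2 * d) % c = 0 ∨ (c ≤ m ∧ 0 < m % c ∧ m % c ≤ (2 * d) % c))) ∨
     (r ≠ p ∧ 2 < r ∧ Even i ∧
       (((2 * d) % c = 0 ∧ (Even ((2 * d) / i) ∨ (m % c = 0 ∧ Odd (m / i)))) ∨
        (0 < (2 * d) % c ∧ i ≤ m ∧ ((0 < m % c ∧ m % c < (2 * d) % c) ∨ (m % c = 0 ∧ Odd (m / i)) ∨
                                    (m % c = (2 * d) % c ∧ Even ((2 * d + m - 2 * ((2 * d) % c)) / i))))))) := by
  subst hq
  have hrp' : r.Prime := Fact.out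
  have hpp : p.Prime := Fact.out
  generalize hkd : d - 1 = k at hrΩ ⊢
  have hdk : d = k + 1 := by omega
  subst hdk
  have hk : 3 ≤ k := by omega
  have hmk : m ≤ 2 * k := by omega
  have hab' : Aniso a b := hab
  have hevd : Even (k + 1) ↔ Odd k := by
    rw [Nat.even_add_one, Nat.not_even_iff_odd]
  change AllFix (Cfsg.quadFormMinus k F a b) m r ↔ _
  by_cases hr2 : r = 2
  · subst hr2
    by_cases hp2 : p = 2
    · subst hp2
      have h2F : (2 : F) = 0 := by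
        have h' : ((2 : ℕ) : F) = 0 := CharP.cast_eq_zero F 2
        exact_mod_cast h'
      rw [hR2E F h2F k m a b hab' hk hm hme hmk, hevd]
      constructor
      · intro h; exact Or.inl ⟨rfl, rfl, h⟩
      · rintro (⟨-, -, h⟩ | ⟨-, h, -⟩ | ⟨-, h, -⟩ | ⟨-, h, -⟩)
        · exact h
        · exact absurd rfl h
        · exact absurd h (by norm_num)
        · exact absurd h (by norm_num)
    · have h2F : (2 : F) ≠ 0 := by
        intro h
        have h' : ((2 : ℕ) : F) = 0 := by exact_mod_cast h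
        have : p ∣ 2 := (CharP.cast_eq_zero_iff F p 2).mp h'
        exact hp2 ((Nat.prime_dvd_prime_iff_eq hpp Nat.prime_two).mp this)
      rw [hR2O F h2F k m a b hab' hk hm hme hmk, hevd]
      constructor
      · intro h; exact Or.inr (Or.inl ⟨rfl, hp2, h⟩)
      · rintro (⟨-, h, -⟩ | ⟨-, -, h⟩ | ⟨-, h, -⟩ | ⟨-, h, -⟩)
        · exact absurd h hp2
        · exact h
        · exact absurd h (by norm_num)
        · exact absurd h (by norm_num)
  · have hrp : r ≠ p := by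
      rcases hr with h | h
      · exact absurd h hr2
      · exact h
    have hrq : ¬ r ∣ Fintype.card F := by
      intro h
      obtain ⟨n, -, hn⟩ := FiniteField.card F p
      rw [hn] at h
      exact hrp ((Nat.prime_dvd_prime_iff_eq hrp' hpp).mp (hrp'.dvd_of_dvd_pow h))
    have h2r : 2 < r := lt_of_le_of_ne hrp'.two_le (Ne.symm hr2)
    have hi' : i = ordI (Fintype.card F) r := hi
    have hc' : c = cc (Fintype.card F) r := by rw [hc, hi']; rfl
    rw [hRO F k m a b hab' hk hm hme hmk r hrp' hr2 hrq hrΩ, ← hi', ← hc']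
    unfold RhsOddM
    constructor
    · rintro (⟨h1, h2⟩ | ⟨h1, h2⟩)
      · exact Or.inr (Or.inr (Or.inl ⟨hrp, h2r, h1, h2⟩))
      · exact Or.inr (Or.inr (Or.inr ⟨hrp, h2r, h1, h2⟩))
    · rintro (⟨h, -, -⟩ | ⟨h, -, -⟩ | ⟨-, -, h1, h2⟩ | ⟨-, -, h1, h2⟩)
      · exact absurd h hr2
      · exact absurd h hr2
      · exact Or.inl ⟨h1, h2⟩
      · exact Or.inr ⟨h1, h2⟩

end Cfsg.Agent.Lib.Helper58.OElm
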