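-- Team project OELM (S5990): the regime `r` odd from the landed packages, modulo [EXISTME]
-- (helper58).
import Mathlib
import Cfsg.Agent.Lib.Helper58.OElm.Main
import Cfsg.Agent.Lib.Helper23.PHyp.TOE
import Cfsg.Agent.Lib.Helper23.PHyp.GeomE
import Cfsg.Agent.Lib.Helper25.OElp.SplitE
import Cfsg.Agent.Lib.Helper1.OElp.SumE
import Cfsg.Agent.Lib.Helper26.OElp.CongE
import Cfsg.Agent.Lib.Helper26.OElp.CntInE
import Cfsg.Agent.Lib.Helper25.OElp.CntWittE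
import Cfsg.Agent.Lib.Helper26.OElp.EllIsoE
import Cfsg.Agent.Lib.Helper44.OElp.ExistP
import Cfsg.Agent.Lib.Helper44.OElp.OddOmega
import Cfsg.Agent.Lib.Helper84.OElm.EmbM
import Cfsg.Agent.Lib.Helper84.OElm.FixM
import Cfsg.Agent.Lib.Helper84.OElm.RedM
import Cfsg.Agent.Lib.Helper38.OElm.DerM
import Cfsg.Agent.Lib.Helper38.OElm.JBM
import Cfsg.Agent.Lib.Helper15.OElm.NumDerM
import Cfsg.Agent.Lib.Helper15.OElm.NumFixM
import Cfsg.Agent.Lib.Helper53.OElm.MinusQE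
import Cfsg.Agent.Lib.Helper87.OElm.Cnt

set_option autoImplicit false
open scoped MatrixGroups
open Matrix

namespace Cfsg.Agent.Lib.Helper58.OElm

open Cfsg.Agent.Lib.Helper23.OHyp Cfsg.Agent.Lib.Helper44.OElp Cfsg.Agent.Lib.Helper64.OParM

universe u

theorem pkgCntInE_all : PkgCntInE.{u} :=
  Cfsg.Agent.Lib.Helper26.OElp.pkgCntInE_of Cfsg.Agent.Lib.Helper23.PHyp.pkgGeomE
    Cfsg.Agent.Lib.Helper25.OElp.pkgSplitE
    (Cfsg.Agent.Lib.Helper25.OElp.pkgCntWittE_of Cfsg.Agent.Lib.Helper25.OElp.pkgSplitE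
      Cfsg.Agent.Lib.Helper26.OElp.pkgEllIsoE)
    Cfsg.Agent.Lib.Helper23.PHyp.pkgCntCauchyE

/-- [EXISTM] modulo [EXISTME]. -/
theorem pkgExistM_of_existME (hE : PkgExistME.{u}) : PkgExistM.{u} :=
  pkgExistM_of hE Cfsg.Agent.Lib.Helper44.OElp.pkgExistP Cfsg.Agent.Lib.Helper84.OElm.pkgEmbM

/-- [RODDM] modulo [EXISTME]. -/
theorem pkgROddM_of_existME (hE : PkgExistME.{u}) : PkgROddM.{u} :=
  pkgROddM_of
    (Cfsg.Agent.Lib.Helper84.OElm.pkgRedM_of Cfsg.Agent.Lib.Helper44.OElp.pkgOddOmegaE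
      Cfsg.Agent.Lib.Helper53.OElm.pkgMinusQE)
    Cfsg.Agent.Lib.Helper53.OElm.pkgMinusQE
    (Cfsg.Agent.Lib.Helper38.OElm.pkgJBM_of Cfsg.Agent.Lib.Helper25.OElp.pkgSplitE
      Cfsg.Agent.Lib.Helper23.PHyp.pkgDivE)
    Cfsg.Agent.Lib.Helper15.OElm.pkgNumFixM
    Cfsg.Agent.Lib.Helper15.OElm.pkgNumDerM
    (Cfsg.Agent.Lib.Helper84.OElm.pkgFixM_of Cfsg.Agent.Lib.Helper25.OElp.pkgSplitE
      Cfsg.Agent.Lib.Helper23.PHyp.pkgDivE Cfsg.Agent.Lib.Helper23.PHyp.pkgSubE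
      Cfsg.Agent.Lib.Helper1.OElp.pkgSumE Cfsg.Agent.Lib.Helper23.PHyp.pkgGeomE)
    (Cfsg.Agent.Lib.Helper38.OElm.pkgDerM_of Cfsg.Agent.Lib.Helper25.OElp.pkgSplitE
      Cfsg.Agent.Lib.Helper23.PHyp.pkgDivE Cfsg.Agent.Lib.Helper1.OElp.pkgSumE)
    (pkgExistM_of_existME hE)
    (Cfsg.Agent.Lib.Helper87.OElm.pkgCnt1M_of Cfsg.Agent.Lib.Helper53.OElm.pkgMinusQE
      (pkgExistM_of_existME hE) Cfsg.Agent.Lib.Helper26.OElp.pkgCongE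
      Cfsg.Agent.Lib.Helper23.PHyp.pkgCntFixE pkgCntInE_all)
    (Cfsg.Agent.Lib.Helper87.OElm.pkgCnt2M_of Cfsg.Agent.Lib.Helper53.OElm.pkgMinusQE
      (pkgExistM_of_existME hE) Cfsg.Agent.Lib.Helper26.OElp.pkgCongE
      Cfsg.Agent.Lib.Helper23.PHyp.pkgCntFixE Cfsg.Agent.Lib.Helper25.OElp.pkgSplitE
      Cfsg.Agent.Lib.Helper23.PHyp.pkgDivE Cfsg.Agent.Lib.Helper1.OElp.pkgSumE)

end Cfsg.Agent.Lib.Helper58.OElm
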